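import Cfsg.Agent.Lib.AC.Fix
import Cfsg.Agent.Lib.NF.C1

/-!
# The conjugates of a block under the operator group commute, if the field has more than two elements
-/

set_option autoImplicit false
set_option linter.unusedSectionVars false

namespace Cfsg.Lib.AC

open Subgroup Cfsg.Lib.BG Cfsg.Lib.Transfer Cfsg.Lib.Loc Cfsg.Lib.PLocal Cfsg.Lib.FH Cfsg.Lib.FQ
open Cfsg.Lib.NF (Tor comm_cent c1_nc c1_or)
open scoped commutatorElement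

variable {X : Type*} [Group X] [Finite X] {A J K N V Z : Subgroup X} {g x : X}

/-- Put `D = ncl K A ≤ N ⊓ 𝐍(Z)`, `Z₁ = Z ⊓ 𝐂(K)`; `⁅D, K⁆ ≤ 𝐂(Z)`. Let `f ∈ Z ⊓ A`; if `f ∈ 𝐂(K)` there is nothing to
show. The `k ∈ K` with `(k f k⁻¹)⁻¹ f ∈ 𝐂(K)` form a subgroup (`K` normalizes `𝐂(K)`); by `Syl.le_of_forall` it suffices
to treat a Sylow `q`-subgroup `P` of `K`. For odd `q`, `d ⋆ P ≤ R` with `d ∈ D` and `R` the `A`-invariant Sylow subgroup of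
`D` (`GQ.sub`, `GQ.syl`); `⁅f, R⁆ ≤ Z ⊓ R = ⊥`, and `d k d⁻¹`, `k` act on `Z` in the same way. For `q = 2` the 2-group
`P ⊔ Z` normalizes `Z₁ < Z`, so some `ζ ∈ Z ∖ Z₁` has `⁅ζ, P⁆ ≤ Z₁`; by `t`, `f ≡ l ζ l⁻¹` modulo `𝐂(K)` with `l ∈ K`, and
`k`, `l` commute on `Z`. -/
theorem fix_cent (h : GQ N A) (hK : K ≤ N) (pZ : IsPGroup 2 Z) (aZ : A ≤ 𝐍(Z)) (kZ : K ≤ 𝐍(Z))
    (c : ∀ a ∈ A, ⁅a ⋆ K, K⁆ ≤ 𝐂(Z))
    (t : ∀ y ∈ Z, ∀ z ∈ Z, y ∉ 𝐂(K) → z ∉ 𝐂(K) → ∃ k ∈ K, (k * y * k⁻¹)⁻¹ * z ∈ 𝐂(K)) :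
    ∀ f ∈ Z ⊓ A, ∀ k ∈ K, (k * f * k⁻¹)⁻¹ * f ∈ 𝐂(K) := by
  intro f hf
  have nK : K ≤ 𝐍(𝐂(K)) := norm_cent (le_norm K)
  by_cases f1 : f ∈ 𝐂(K)
  · exact fun k hk => mul_mem (inv_mem (conj_mem_of_norm (nK hk) f1)) f1
  let L : Subgroup X :=
    { carrier := {k | k ∈ K ∧ (k * f * k⁻¹)⁻¹ * f ∈ 𝐂(K)}
      one_mem' := ⟨one_mem _, by simp⟩
      mul_mem' := fun {a b} ha hb => ⟨mul_mem ha.1 hb.1, by
        have := mul_mem (conj_mem_of_norm (nK ha.1) hb.2) ha.2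
        convert this using 1; group⟩
      inv_mem' := fun {a} ha => ⟨inv_mem ha.1, by
        have := conj_mem_of_norm' (nK ha.1) (inv_mem ha.2)
        convert this using 1; group⟩ }
  refine fun k hk => ((Syl.le_of_forall fun q hq _ => ?_ : K ≤ L) hk).2
  have := Fact.mk hq
  obtain ⟨P, hP⟩ := Syl.exists q K
  refine ⟨P, hP, fun k hk => ⟨hP.le hk, ?_⟩⟩
  by_cases q2 : q = 2
  · subst q2
    obtain ⟨Y, y1, ⟨y2, y3⟩, y4⟩ := Core.exists_minimal_le (P := fun Y => P ≤ 𝐍(Y) ∧ ¬ Y ≤ 𝐂(K)) (H := Z)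
      ⟨hP.le.trans kZ, fun e => f1 (e hf.1)⟩
    have lt := PGroup.commutator_lt (pgroup_of_le pZ y1) hP.pgroup y2 fun e => y3 (e.le.trans bot_le)
    have y5 : ⁅Y, P⁆ ≤ 𝐂(K) := by_contra fun e => lt.ne (y4 _ ⟨right_norm_comm Y P, e⟩ lt.le)
    obtain ⟨z, hz, z1⟩ := SetLike.not_le_iff_exists.1 y3
    obtain ⟨l, hl, e⟩ := t z (y1 hz) f hf.1 z1 f1
    have e1 := inv_mem (y5 (comm_mem_comm (inv_mem hz) hk))
    have e2 := mem_cent.1 (c 1 (one_mem A) (comm_mem_comm (x := k⁻¹) (by rw [conj_one]; exact inv_mem (hP.le hk))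
      (inv_mem hl))) z (y1 hz)
    have e3 := mem_cent.1 e k (hP.le hk)
    have := mul_mem (mul_mem (inv_mem e) (conj_mem_of_norm (nK hl) e1)) e
    have e4 : k * f * k⁻¹ = l * (k * z * k⁻¹) * l⁻¹ * ((l * z * l⁻¹)⁻¹ * f) :=
      calc k * f * k⁻¹ = k * l * z * l⁻¹ * k⁻¹ * (k * ((l * z * l⁻¹)⁻¹ * f)) * k⁻¹ := by group
        _ = l * k * (k⁻¹ * l⁻¹ * k⁻¹⁻¹ * l⁻¹⁻¹ * z) * l⁻¹ * k⁻¹ * ((l * z * l⁻¹)⁻¹ * f) := by rw [e3]; group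
        _ = _ := by rw [← e2]; group
    rw [e4]
    convert this using 1; group
  have dZ : ∀ a ∈ A, a ⋆ K ≤ 𝐍(Z) := fun a ha => by
    have := map_norm (MulAut.conj a).toMonoidHom kZ
    rwa [conj_eq_of_norm (aZ ha)] at this
  obtain ⟨R, hR, aR⟩ := (h.sub (ncl_le hK h.norm) (norm_ncl K A)).syl q
  obtain ⟨d, hd, l⟩ := hR.exists_conj_le hP.pgroup (hP.le.trans (le_ncl K A))
  let M : Subgroup X :=
    { carrier := {d | d ∈ 𝐍(Z) ∧ d * k * d⁻¹ * k⁻¹ ∈ 𝐂(Z)}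
      one_mem' := ⟨one_mem _, by simp⟩
      mul_mem' := fun {a b} ha hb => ⟨mul_mem ha.1 hb.1, by
        have := mul_mem (conj_mem_of_norm (norm_cent le_rfl ha.1) hb.2) ha.2
        convert this using 1; group⟩
      inv_mem' := fun {a} ha => ⟨inv_mem ha.1, by
        have := conj_mem_of_norm' (norm_cent le_rfl ha.1) (inv_mem ha.2)
        convert this using 1; group⟩ }
  have e1 := ((ncl_le_iff.2 fun a ha m hm => ⟨dZ a ha hm, c a ha (comm_mem_comm hm (hP.le hk))⟩ : ncl K A ≤ M) hd).2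
  have r1 : d * k * d⁻¹ ∈ R := l (conj_mem_conj.2 hk)
  generalize d * k * d⁻¹ = r at e1 r1
  have e2 : r * f * r⁻¹ * f⁻¹ ∈ R ⊓ Z := ⟨by
    simpa [mul_assoc] using mul_mem r1 (conj_mem_of_norm (aR hf.2) (inv_mem r1)),
    Z.mul_mem (conj_mem_of_norm (ncl_le_iff.2 dZ (hR.le r1)) hf.1) (inv_mem hf.1)⟩
  have := Fact.mk Nat.prime_two
  rw [disjoint_of_coprime (coprime_pgroups hR.pgroup pZ q2), mem_bot, mul_inv_eq_one] at e2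
  have e3 := mem_cent.1 e1 _ (conj_mem_of_norm (kZ (hP.le hk)) hf.1)
  have e4 : k * f * k⁻¹ = f :=
    calc k * f * k⁻¹ = k * f * k⁻¹ * (r * k⁻¹) * (r * k⁻¹)⁻¹ := by group
      _ = r * f * r⁻¹ := by rw [e3]; group
      _ = f := e2
  rw [e4, inv_mul_cancel]
  exact one_mem _

/-- Copy of `NF.c1`; the new last argument of `tr` is `fix_cent`. -/
theorem c1 (h : GQ N A) (hJ : J ≤ N) (aJ : A ≤ 𝐍(J)) (b : Bq J V g) (pJ : IsPGroup 2 J) (hs : Group.IsSolvable N)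
    (t : Tor J V K) (hK : K ≤ N) (e : 𝐂(V).relIndex J ≠ 2) (hx : x ∈ A) : V ≤ 𝐂(x ⋆ V) := by
  by_contra n
  refine t.t4.elim e fun ⟨k, hk, y, hy, e⟩ => e ?_
  have ta : ∀ a ∈ A, Tor J (a ⋆ V) (a ⋆ K) := fun a ha => by
    have := t.conj a
    rwa [conj_eq_of_norm (aJ ha)] at this
  have cz : ∀ c ∈ A, c ⋆ ⁅V, J⁆ = ⁅c ⋆ V, J⁆ := fun c hc => by rw [conj_commutator, conj_eq_of_norm (aJ hc)]
  have cc : ∀ c ∈ A, ∀ a ∈ A, a ⋆ K ≤ 𝐍(c ⋆ ⁅V, J⁆) ∧ ⁅a ⋆ K, K⁆ ≤ 𝐂(c ⋆ ⁅V, J⁆) := fun c hc a ha => by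
    rw [cz c hc]
    exact comm_cent (b.conj' (aJ hc)) ((b.conj' (aJ hx)).conj' (aJ hc)) (c1_nc n c) (b.conj' (aJ ha)).toTq (ta a ha)
      b.toTq t (sol_of_le hs (sup_le (conj_le_of_norm hK (h.norm ha)) hK))
  have zY : ncl ⁅V, J⁆ A ≤ J ⊓ 𝐂(J) := ncl_le (le_inf (comm_le_of_le b.le le_rfl) b.quad) (norm_center aJ)
  have ab := abelian_of_le (abelian_center J) zY
  have kZ : ∀ a ∈ A, a ⋆ K ≤ 𝐍(ncl ⁅V, J⁆ A) := fun a ha m hm => mem_normalizer_of_conj_le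
    (conj_le_iff_le_inv_conj.2 (ncl_le_iff.2 fun c hc => conj_le_iff_le_inv_conj.1 (by
      rw [conj_eq_of_norm ((cc c hc a ha).1 hm)]; exact conj_le_ncl _ hc)))
  have kZ1 : K ≤ 𝐍(ncl ⁅V, J⁆ A) := by simpa only [conj_one] using kZ 1 (one_mem A)
  have zz : ncl ⁅V, J⁆ A ≤ ⁅V, J⁆ ⊔ ncl ⁅V, J⁆ A ⊓ 𝐂(K) := ncl_le_iff.2 fun c hc => by
    rcases c1_or (b.conj' (aJ hc)) ((b.conj' (aJ hx)).conj' (aJ hc)) (c1_nc n c) b.toTq t with d | ⟨d, -⟩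
    · exact (le_inf (conj_le_ncl _ hc) (cent_symm (by rwa [cz c hc]))).trans le_sup_right
    · rw [cz c hc, ← d]; exact le_sup_left
  have nz : ⁅V, J⁆ ≤ 𝐍(ncl ⁅V, J⁆ A ⊓ 𝐂(K)) := (le_ncl _ A).trans (abelian_norm ab inf_le_left)
  have c0 : ∀ a ∈ A, ⁅a ⋆ K, K⁆ ≤ 𝐂(ncl ⁅V, J⁆ A) := fun a ha =>
    cent_symm (ncl_le_iff.2 fun c hc => cent_symm (cc c hc a ha).2)
  have t0 : ∀ y ∈ ncl ⁅V, J⁆ A, ∀ z ∈ ncl ⁅V, J⁆ A, y ∉ 𝐂(K) → z ∉ 𝐂(K) →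
      ∃ k ∈ K, (k * y * k⁻¹)⁻¹ * z ∈ 𝐂(K) := fun y hy z hz y1 z1 => by
    obtain ⟨y₁, a1, y₂, a2, rfl⟩ := (mem_sup_right_norm nz).1 (zz hy)
    obtain ⟨z₁, c1, z₂, c2, rfl⟩ := (mem_sup_right_norm nz).1 (zz hz)
    obtain ⟨l, hl, d⟩ := t.t3 y₁ a1 z₁ c1 (fun c => y1 (mul_mem c a2.2)) fun c => z1 (mul_mem c c2.2)
    refine ⟨l, hl, ?_⟩
    have := mul_mem (mul_mem (inv_mem (conj_mem_of_norm (norm_cent (le_norm K) hl) a2.2)) d) c2.2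
    convert this using 1; group
  refine tr h ((zY.trans inf_le_left).trans hJ) hK ab (norm_ncl _ A) kZ1 (fun a ha m hm => ?_) t0
    (fix_cent h hK (pgroup_of_le pJ (zY.trans inf_le_left)) (norm_ncl _ A) kZ1 c0 t0) k hk y (le_ncl _ A hy)
  refine mem_normalizer_of_conj_le (conj_le_iff.2 fun z hz => ⟨conj_mem_of_norm (kZ a ha hm) hz.1,
    mem_cent.2 fun l hl => ?_⟩)
  have h2 := mem_cent.1 (c0 a ha (commutator_mem_commutator (inv_mem hm) hl)) z hz.1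
  have h3 := mem_cent.1 hz.2 l hl
  calc l * (m * z * m⁻¹) = m * (⁅m⁻¹, l⁆ * (l * z)) * m⁻¹ := by rw [commutatorElement_def]; group
    _ = m * (z * ⁅m⁻¹, l⁆ * l) * m⁻¹ := by rw [h3, h2]; group
    _ = _ := by rw [commutatorElement_def]; group

end Cfsg.Lib.AC
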