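import Cfsg.Agent.Lib.AC.GQ

/-!
# A coset of a normal subgroup that is a conjugacy class
-/

set_option autoImplicit false
set_option linter.unusedSectionVars false

namespace Cfsg.Lib.AC

open Subgroup Cfsg.Lib.BG Cfsg.Lib.Transfer Cfsg.Lib.FH

variable {X : Type*} [Group X] {D F M N Γ : Subgroup X} {a d g : X}

/-- The coset `N a` is the conjugacy class of `a` in `D`. -/
structure A0 (N D : Subgroup X) (a : X) : Prop where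
  nml : Nml N D
  mem : a ∈ D
  cm : ∀ d ∈ D, d * a * d⁻¹ * a⁻¹ ∈ N
  cj : ∀ n ∈ N, ∃ d ∈ D, d * a * d⁻¹ = n * a

/-- The coset `N a` is the conjugacy class of `a` in `N F`, where `F` is nilpotent and contains `a`. -/
structure Ac (N F : Subgroup X) (a : X) : Prop where
  norm : F ≤ 𝐍(N)
  nil : Group.IsNilpotent F
  mem : a ∈ F
  cm : ∀ f ∈ F, f * a * f⁻¹ * a⁻¹ ∈ N
  cj : ∀ n ∈ N, ∃ d ∈ N ⊔ F, d * a * d⁻¹ = n * a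

/-- `d = n f` gives `d a d⁻¹ a⁻¹ = n (f a f⁻¹ a⁻¹) (a n⁻¹ a⁻¹)`. -/
theorem Ac.a0 (h : Ac N F a) : A0 N (N ⊔ F) a := by
  sorry

theorem Ac.conj' (h : Ac N F a) (g : X) : Ac (g ⋆ N) (g ⋆ F) (g * a * g⁻¹) := by
  sorry

theorem Ac.conj (h : Ac N F a) (hg : g ∈ 𝐍(N)) : Ac N (g ⋆ F) (g * a * g⁻¹) := by
  have := h.conj' g
  rwa [conj_eq_of_norm hg] at this

variable [Finite X]

/-- The class of `b ∈ N a` in `D` is `N a`, so `|D| = |N| |D ⊓ 𝐂[b]|`; `|D| |N ⊓ Γ| = |N| |Γ|`. For `b ∈ Γ ⊓ N a` the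
`Γ`-class of `b` lies in `(N ⊓ Γ) a` and has `|Γ| / |Γ ⊓ 𝐂[b]| ≥ |Γ| / |D ⊓ 𝐂[b]| = |N ⊓ Γ|` elements. So (with `b = a`) the
`Γ`-class of `a` is `(N ⊓ Γ) a` and `D ⊓ 𝐂[a] ≤ Γ`. Now `d a d⁻¹ = γ a γ⁻¹` with `γ ∈ Γ`, and `γ⁻¹ d ∈ D ⊓ 𝐂[a]`. -/
theorem A0.uniq (h : A0 N D a) (e : N ⊔ Γ = D) (ha : a ∈ Γ) (hd : d ∈ D) (k : d * a * d⁻¹ ∈ Γ) : d ∈ Γ := by
  sorry

/-- Otherwise some `f ∈ F ∖ Γ` normalizes `F ⊓ Γ` (normalizer condition); `f a f⁻¹ ∈ Γ` contradicts `A0.uniq`. -/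
theorem Ac.le_supp (h : Ac N F a) (e : N ⊔ Γ = N ⊔ F) (ha : a ∈ Γ) : F ≤ Γ := by
  sorry

/-- `sn`: `A0.uniq` with `Γ = F`. `gl`: `a = m γ` with `m ∈ D`, `γ ∈ Γ`; `γ = m⁻¹ a = c a c⁻¹` with `c ∈ N ⊔ F`, and
`c ∈ D ⊔ F = D ⊔ Γ` by `A0.uniq` for the supplement `D ⊔ F`; so `a ∈ c⁻¹ ⋆ Γ = d ⋆ Γ` with `d ∈ D` (`c⁻¹ = d γ'`), and
`le_supp` applies (`supp_conj`, `supp_mono`). -/
theorem Ac.gq (h : Ac N F a) : GQ N F := by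
  sorry

/-- `B = {f ∈ F | f a f⁻¹ a⁻¹ ∈ M}`. For `m ∈ M`: `m a = d a d⁻¹`, `d ∈ M ⊔ F` by `A0.uniq`, `d = m' f` and `f ∈ B`. -/
theorem Ac.sub (h : Ac N F a) (hM : M ≤ N) (hF : F ≤ 𝐍(M)) : ∃ B ≤ F, Ac M B a := by
  sorry

theorem Ac.quo (h : Ac N F a) (hM : Nml M N) (hF : F ≤ 𝐍(M)) : ∃ b, Ac (quo N M) (quo F M) b := by
  sorry

/-- A minimal `E` with `X' ⊔ E = ⊤` is nilpotent (as `FH.exists_nil_supp`: for a Sylow subgroup `Q` of `E` the group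
`X' ⊔ Q` is normal; Frattini argument in `E`). `a = n e`, `e = n⁻¹ a = d a d⁻¹`, `F = d⁻¹ ⋆ E`. -/
theorem exists_ac (h : ∀ n ∈ commutator X, ∃ d, d * a * d⁻¹ = n * a) : ∃ F, Ac (commutator X) F a := by
  sorry

end Cfsg.Lib.AC
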