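import Cfsg.Agent.Lib.AC.GQ

/-!
# Self-normalizing operator groups: fixed point lemmas
-/

set_option autoImplicit false
set_option linter.unusedSectionVars false

namespace Cfsg.Lib.AC

open Subgroup Cfsg.Lib.BG Cfsg.Lib.Transfer Cfsg.Lib.FH
open Cfsg.Lib.NF (fix_qeq fix_grow)
open scoped commutatorElement

variable {X : Type*} [Group X] [Finite X] {A D J K N U V Y Z : Subgroup X} {w : X}

/-- The fixed points on the section `N / Y` come from `A`. -/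
theorem mem_of_fix (h : GQ N A) (hY : Nml Y N) (aY : A ≤ 𝐍(Y)) (hw : w ∈ N)
    (e : ∀ a ∈ A, w⁻¹ * (a * w * a⁻¹) ∈ Y) : ∃ f ∈ N ⊓ A, w⁻¹ * f ∈ Y := by
  have h1 : w ∈ 𝐍(Y ⊔ A) := inv_mem_iff.1 (mem_normalizer_of_conj_le (by
    rw [conj_sup, conj_eq_of_norm (inv_mem (hY.norm hw))]
    refine sup_le le_sup_left (conj_le_iff.2 fun a ha => ?_)
    have := mul_mem (mem_sup_left (e a ha) : _ ∈ Y ⊔ A) (mem_sup_right ha)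
    convert this using 1; group))
  obtain ⟨m, hm, k⟩ := h.frat hY.le aY (hY.norm hw) h1
  have m1 := mul_mem (hY.le hm) hw
  exact ⟨m * w, ⟨m1, h.sn ⟨m1, k⟩⟩, by rw [← mul_assoc]; exact conj_mem_of_norm' (hY.norm hw) hm⟩

/-- If the `D A`-orbit of the coset `w Y` is a `D`-orbit then `A` fixes a point of it. The stabilizer
`Γ = {γ ∈ D ⊔ A | w⁻¹ γ w γ⁻¹ ∈ Y}` has `D ⊔ Γ = D ⊔ A` (`d⁻¹ a ∈ Γ`); `GQ.gl`
gives `n ∈ D` with `A ≤ n ⋆ Γ`, and `mem_of_fix` applies to `n w n⁻¹ ∈ J`. -/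
theorem fx (h : GQ N A) (hD : D ≤ N) (hJ : J ≤ N) (aD : A ≤ 𝐍(D)) (aJ : A ≤ 𝐍(J)) (aY : A ≤ 𝐍(Y))
    (dJ : D ≤ 𝐍(J)) (dY : D ≤ 𝐍(Y)) (hY : Nml Y J) (hw : w ∈ J)
    (e : ∀ a ∈ A, ∃ d ∈ D, (d * w * d⁻¹)⁻¹ * (a * w * a⁻¹) ∈ Y) :
    ∃ n ∈ D, ∃ f ∈ J ⊓ A, (n * w * n⁻¹)⁻¹ * f ∈ Y := by
  have hn : D ⊔ A ≤ 𝐍(Y) := sup_le dY aY
  let Γ : Subgroup X :=
    { carrier := {γ | γ ∈ D ⊔ A ∧ w⁻¹ * (γ * w * γ⁻¹) ∈ Y}
      one_mem' := ⟨one_mem _, by simp⟩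
      mul_mem' := fun {a b} ha hb => ⟨mul_mem ha.1 hb.1, by
        have := mul_mem ha.2 (conj_mem_of_norm (hn ha.1) hb.2)
        convert this using 1; group⟩
      inv_mem' := fun {a} ha => ⟨inv_mem ha.1, by
        have := conj_mem_of_norm' (hn ha.1) (inv_mem ha.2)
        convert this using 1; group⟩ }
  have e1 : D ⊔ Γ = D ⊔ A := by
    refine le_antisymm (sup_le le_sup_left fun _ a => a.1) (sup_le le_sup_left fun a ha => ?_)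
    obtain ⟨d, hd, k⟩ := e a ha
    have : d⁻¹ * a ∈ Γ := ⟨mul_mem (mem_sup_left (inv_mem hd)) (mem_sup_right ha), by
      have := conj_mem_of_norm' (dY hd) k
      convert this using 1; group⟩
    simpa using mul_mem (mem_sup_left hd : d ∈ D ⊔ Γ) (mem_sup_right this)
  obtain ⟨n, hn', e2⟩ := h.gl D hD aD Γ e1
  exact ⟨n, hn', mem_of_fix (h.sub hJ aJ) hY aY (conj_mem_of_norm (dJ hn') hw) fun a ha => by
    have := conj_mem_of_norm (dY hn') (mem_conj.1 (e2 ha)).2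
    convert this using 1; group⟩

/-- A family of transitive pieces. Put `Z_a = Z ⊓ 𝐂(a ⋆ K)` for `a ∈ A`, `D = ncl K A`, `Y = Z ⊓ 𝐂(D) = ⨅ Z_a`.
Conjugating `n` and `t`: `D` normalizes each `Z_a`, and `a ⋆ K` is transitive on the nontrivial cosets of `Z_a`.
(1) If `Z_a ≠ Z_b` then `⁅y, k⁆ ∈ Z_b` for `y ∈ Z`, `k ∈ a ⋆ K`: the orders agree, so there is `y₀ ∈ Z_a ∖ Z_b`, by
transitivity every element of `Z` is in `Z_a Z_b`, and `a ⋆ K` centralizes `Z_a` and normalizes `Z_b`.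
(2) Suppose `⁅y, k⁆ ∉ 𝐂(K)`. There is `ω ∈ Z` outside every `Z_a`: take `ω` with the set `{a ∈ A | ω ∉ Z_a}`
maximal; if `ω ∈ Z_a` multiply by `a ⁅y, k⁆ a⁻¹`, which is outside `Z_a` and inside every `Z_b ≠ Z_a`.
(3) For `ω, ω'` outside every `Z_a` take `d ∈ D` with `{a ∈ A | (d ω d⁻¹)⁻¹ ω' ∈ Z_a}` maximal; if `a` is missing,
correct by an element of `a ⋆ K`, which by (1) acts trivially modulo every `Z_b ≠ Z_a`. So `fx` (`J = Z`) gives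
`f ∈ Z ⊓ A` outside `𝐂(K)`; by `hf` and `t` it is in the only nontrivial coset of `Z₁`. -/
theorem tr (h : GQ N A) (hZ : Z ≤ N) (hK : K ≤ N) (ab : IsMulCommutative Z) (aZ : A ≤ 𝐍(Z)) (kZ : K ≤ 𝐍(Z))
    (n : ∀ a ∈ A, a ⋆ K ≤ 𝐍(Z ⊓ 𝐂(K)))
    (t : ∀ y ∈ Z, ∀ z ∈ Z, y ∉ 𝐂(K) → z ∉ 𝐂(K) → ∃ k ∈ K, (k * y * k⁻¹)⁻¹ * z ∈ 𝐂(K))
    (hf : ∀ f ∈ Z ⊓ A, ∀ k ∈ K, (k * f * k⁻¹)⁻¹ * f ∈ 𝐂(K)) : ∀ k ∈ K, ∀ y ∈ Z, ⁅y, k⁆ ∈ 𝐂(K) := by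
  have cj : ∀ a ∈ A, ∀ b : X, a ⋆ (Z ⊓ 𝐂(b ⋆ K)) = Z ⊓ 𝐂((a * b) ⋆ K) := fun a ha b => by
    rw [conj_inf, conj_eq_of_norm (aZ ha), conj_centralizer, conj_conj]
  have cj1 : ∀ a ∈ A, a ⋆ (Z ⊓ 𝐂(K)) = Z ⊓ 𝐂(a ⋆ K) := fun a ha => by
    simpa only [conj_one, mul_one] using cj a ha 1
  have kZ' : ∀ a ∈ A, a ⋆ K ≤ 𝐍(Z) := fun a ha => by
    have := map_norm (MulAut.conj a).toMonoidHom kZ
    rwa [conj_eq_of_norm (aZ ha)] at this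
  have n' : ∀ a ∈ A, ∀ b ∈ A, b ⋆ K ≤ 𝐍(Z ⊓ 𝐂(a ⋆ K)) := fun a ha b hb => by
    have := map_norm (MulAut.conj a).toMonoidHom (n _ (mul_mem (inv_mem ha) hb))
    rwa [conj_conj, mul_inv_cancel_left, cj1 a ha] at this
  have t' : ∀ a ∈ A, ∀ y ∈ Z, ∀ z ∈ Z, y ∉ Z ⊓ 𝐂(a ⋆ K) → z ∉ Z ⊓ 𝐂(a ⋆ K) →
      ∃ k ∈ a ⋆ K, (k * y * k⁻¹)⁻¹ * z ∈ Z ⊓ 𝐂(a ⋆ K) := fun a ha y hy z hz y1 z1 => by
    rw [← cj1 a ha, mem_conj] at y1 z1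
    have y2 := conj_mem_of_norm' (aZ ha) hy
    have z2 := conj_mem_of_norm' (aZ ha) hz
    obtain ⟨k, hk, e⟩ := t _ y2 _ z2 (fun c => y1 ⟨y2, c⟩) fun c => z1 ⟨z2, c⟩
    refine ⟨_, conj_mem_conj.2 hk, ?_⟩
    rw [← cj1 a ha, mem_conj]
    have : (k * (a⁻¹ * y * a) * k⁻¹)⁻¹ * (a⁻¹ * z * a) ∈ Z ⊓ 𝐂(K) :=
      mem_inf.2 ⟨mul_mem (inv_mem (conj_mem_of_norm (kZ hk) y2)) z2, e⟩
    convert this using 1; group
  have s1 : ∀ a ∈ A, ∀ b ∈ A, Z ⊓ 𝐂(a ⋆ K) ≠ Z ⊓ 𝐂(b ⋆ K) → ∀ y ∈ Z, ∀ k ∈ a ⋆ K,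
      (k * y * k⁻¹)⁻¹ * y ∈ Z ⊓ 𝐂(b ⋆ K) := fun a ha b hb ne y hy k hk => by
    by_cases y1 : y ∈ Z ⊓ 𝐂(b ⋆ K)
    · exact mul_mem (inv_mem (conj_mem_of_norm (n' b hb a ha hk) y1)) y1
    obtain ⟨y₀, h1, h2⟩ := SetLike.not_le_iff_exists.1 fun c : Z ⊓ 𝐂(a ⋆ K) ≤ Z ⊓ 𝐂(b ⋆ K) =>
      ne (eq_of_le_of_card_le c (by rw [← cj1 a ha, ← cj1 b hb, card_conj, card_conj]))
    obtain ⟨k', hk', e⟩ := t' b hb y₀ h1.1 y hy h2 y1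
    have h3 := mem_cent.1 (conj_mem_of_norm (n' a ha b hb hk') h1).2 k hk
    have := mul_mem (inv_mem (conj_mem_of_norm (n' b hb a ha hk) e)) e
    generalize k' * y₀ * k'⁻¹ = u at h3 this
    have h4 : k * u⁻¹ = u⁻¹ * k := by
      rw [mul_inv_eq_iff_eq_mul, mul_assoc, h3, inv_mul_cancel_left]
    rwa [← mul_assoc k u⁻¹, h4, show (u⁻¹ * k * y * k⁻¹)⁻¹ * (u⁻¹ * y) = (k * y * k⁻¹)⁻¹ * y by group] at this
  intro k hk y hy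
  have e0 : ⁅y, k⁆ = (k * y * k⁻¹)⁻¹ * y := by
    rw [← mem_cent.1 (abelian_cent ab (inv_mem (conj_mem_of_norm (kZ hk) hy))) y hy, commutatorElement_def]
    group
  rw [e0]
  by_contra hc
  obtain ⟨ω, hω, o⟩ := fix_grow (· ∈ Z) (fun ω a => ω ∉ Z ⊓ 𝐂(a ⋆ K)) A (one_mem _) fun ω hω a ha c => by
    rw [not_not] at c
    have y1 := conj_mem_of_norm (aZ ha) hy
    have k1 : a * k * a⁻¹ ∈ a ⋆ K := conj_mem_conj.2 hk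
    refine ⟨ω * (((a * k * a⁻¹) * (a * y * a⁻¹) * (a * k * a⁻¹)⁻¹)⁻¹ * (a * y * a⁻¹)),
      mul_mem hω (mul_mem (inv_mem (conj_mem_of_norm (kZ' a ha k1) y1)) y1), fun b hb d d' => d ?_, fun d => hc ?_⟩
    · exact (mul_mem_cancel_right (s1 a ha b hb (fun e => d (e ▸ c)) _ y1 _ k1)).1 d'
    · rw [mul_mem_cancel_left c, ← cj1 a ha, mem_conj] at d
      convert (mem_inf.1 d).2 using 1; group
  let D : Subgroup X := ⨆ a ∈ A, a ⋆ K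
  have le : ∀ a ∈ A, a ⋆ K ≤ D := fun a ha => le_iSup₂_of_le a ha le_rfl
  have aD : A ≤ 𝐍(D) := fun b hb => mem_normalizer_of_conj_le (conj_le_iff_le_inv_conj.2 (iSup₂_le fun a ha =>
    conj_le_iff_le_inv_conj.1 (by rw [conj_conj]; exact le _ (mul_mem hb ha))))
  have dZ : D ≤ 𝐍(Z) := iSup₂_le kZ'
  obtain ⟨m, hm, f, f1, f2⟩ := fx (Y := Z ⊓ 𝐂(D)) h (iSup₂_le fun a ha => conj_le_of_norm hK (h.norm ha)) hZ aD aZ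
    (norm_inf aZ (norm_cent aD)) dZ (norm_inf dZ (norm_cent (le_norm D))) ⟨inf_le_left, abelian_norm ab inf_le_left⟩ hω
    fun x hx => by
      have x1 := conj_mem_of_norm (aZ hx) hω
      have x2 : ∀ a ∈ A, x * ω * x⁻¹ ∉ Z ⊓ 𝐂(a ⋆ K) := fun a ha c => o _ (mul_mem (inv_mem hx) ha) (by
        rw [← cj _ (inv_mem hx), mem_conj, inv_inv]; exact c)
      obtain ⟨d, hd, e⟩ := fix_grow (· ∈ D) (fun d a => (d * ω * d⁻¹)⁻¹ * (x * ω * x⁻¹) ∈ Z ⊓ 𝐂(a ⋆ K)) A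
        (one_mem _) fun d hd a ha c => by
          have d1 := conj_mem_of_norm (dZ hd) hω
          obtain ⟨k', hk', e⟩ := t' a ha _ d1 _ x1 (fun c => o a ha (by
            simpa [mul_assoc] using conj_mem_of_norm' ((iSup₂_le (n' a ha) : D ≤ _) hd) c)) (x2 a ha)
          have e2 : k' * d * ω * (k' * d)⁻¹ = k' * (d * ω * d⁻¹) * k'⁻¹ := by group
          refine ⟨k' * d, mul_mem (le a ha hk') hd, fun b hb c' => ?_, by rwa [e2]⟩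
          have := mul_mem (s1 a ha b hb (fun e => c (e ▸ c')) _ d1 _ hk') c'
          rwa [mul_assoc, mul_inv_cancel_left, ← e2] at this
      refine ⟨d, hd, (e 1 (one_mem _)).1, mem_cent.2 fun g hg => mem_cent1.1 ((iSup₂_le fun a ha g hg =>
        mem_cent1.2 (mem_cent.1 (e a ha).2 g hg) : D ≤ 𝐂[_]) hg)⟩
  have kD : K ≤ D := by simpa only [conj_one] using le 1 (one_mem _)
  have f3 : f ∉ 𝐂(K) := fun c => o 1 (one_mem _) (by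
    have c1 : m * ω * m⁻¹ ∈ Z ⊓ 𝐂(1 ⋆ K) := by
      rw [conj_one]
      exact mem_inf.2 ⟨conj_mem_of_norm (dZ hm) hω,
        inv_mem_iff.1 ((mul_mem_cancel_right c).1 (cent_anti kD (mem_inf.1 f2).2))⟩
    simpa [mul_assoc] using conj_mem_of_norm' ((iSup₂_le (n' 1 (one_mem _)) : D ≤ _) hm) c1)
  have nK := norm_cent (le_norm K) hk
  have one : ∀ x ∈ Z, x ∉ 𝐂(K) → f⁻¹ * x ∈ 𝐂(K) := fun x hx c => by
    obtain ⟨l, hl, d⟩ := t f f1.1 x hx f3 c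
    have := mul_mem (inv_mem (hf f f1 l hl)) d
    convert this using 1; group
  have y1 : y ∉ 𝐂(K) := fun c => hc (mul_mem (inv_mem (conj_mem_of_norm nK c)) c)
  have := mul_mem (inv_mem (one _ (conj_mem_of_norm (kZ hk) hy) fun c => y1 (by
    simpa [mul_assoc] using conj_mem_of_norm' nK c))) (one y hy y1)
  exact hc (by convert this using 1; group)

end Cfsg.Lib.AC
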