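import Cfsg.Agent.Lib.NF.Fix

/-!
# Operator groups that are self-normalizing and have the property of Glauberman's lemma
-/

set_option autoImplicit false

namespace Cfsg.Lib.AC

open Subgroup Cfsg.Lib.BG Cfsg.Lib.Transfer Cfsg.Lib.FH

variable {G : Type*} [Group G] {N F M D S T : Subgroup G} {p : ℕ} {g : G}

/-- `F` is self-normalizing in `N F`, and every supplement of an invariant subgroup `D` of `N` in `D F` contains a
`D`-conjugate of `F`. -/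
structure GQ (N F : Subgroup G) : Prop where
  norm : F ≤ 𝐍(N)
  sn : N ⊓ 𝐍(F) ≤ F
  gl : ∀ D ≤ N, F ≤ 𝐍(D) → ∀ Γ : Subgroup G, D ⊔ Γ = D ⊔ F → ∃ d ∈ D, F ≤ d ⋆ Γ

theorem GQ.sub (h : GQ N F) (hM : M ≤ N) (hF : F ≤ 𝐍(M)) : GQ M F :=
  ⟨hF, (inf_le_inf_right _ hM).trans h.sn, fun D a => h.gl D (a.trans hM)⟩

theorem GQ.conj' (h : GQ N F) (g : G) : GQ (g ⋆ N) (g ⋆ F) := by
  refine ⟨map_norm _ h.norm, ?_, fun D a b Γ e => ?_⟩
  · rw [← conj_normalizer, ← conj_inf]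
    exact conj_mono g h.sn
  obtain ⟨d, hd, l⟩ := h.gl (g⁻¹ ⋆ D) (conj_le_iff_le_inv_conj.2 (by rwa [inv_inv]))
    (by rw [← conj_normalizer]; exact conj_le_iff_le_inv_conj.1 b) (g⁻¹ ⋆ Γ)
    (by rw [← conj_sup, e, conj_sup, inv_conj_conj])
  refine ⟨g * d * g⁻¹, conj_inv_conj g D ▸ conj_mem_conj.2 hd, ?_⟩
  have := conj_mono g l
  rwa [conj_conj (H := Γ), conj_conj (H := Γ), ← mul_assoc] at this

theorem GQ.conj (h : GQ N F) (hg : g ∈ 𝐍(N)) : GQ N (g ⋆ F) := by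
  have := h.conj' g
  rwa [conj_eq_of_norm hg] at this

variable [Finite G]

theorem GQ.frat (h : GQ N F) (hM : M ≤ N) (hF : F ≤ 𝐍(M)) (h1 : g ∈ 𝐍(M)) (h2 : g ∈ 𝐍(M ⊔ F)) :
    ∃ m ∈ M, m * g ∈ 𝐍(F) := by
  obtain ⟨m, hm, e⟩ := h.gl M hM hF (g ⋆ F) (by rw [← conj_eq_of_norm h2, conj_sup, conj_eq_of_norm h1])
  rw [conj_conj] at e
  exact ⟨m, hm, norm_of_conj_eq (eq_of_le_of_card_le e (card_conj _ _).le).symm⟩

theorem GQ.quo (h : GQ N F) (hM : Nml M N) (hF : F ≤ 𝐍(M)) : GQ (quo N M) (quo F M) := by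
  refine ⟨quo_norm h.norm M, ?_, fun D a b Γ e => ?_⟩
  · rintro _ ⟨⟨x, hx, rfl⟩, hc⟩
    have h1 : (x : G) ∈ 𝐍(M ⊔ F) := norm_of_conj_eq (by
      rw [conj_sup, conj_eq_of_norm x.2]
      refine supp_of_quo_eq ?_ hF ?_
      · exact conj_le_of_mem hF x.2
      · rw [quo_cj x.2, conj_eq_of_norm hc])
    obtain ⟨m, hm, e⟩ := h.frat hM.le hF x.2 h1
    have h2 : m * x ∈ F := h.sn ⟨mul_mem (hM.le hm) hx, e⟩
    refine mem_quo.2 ⟨⟨m * x, hF h2⟩, h2, NF.fix_qeq.2 ?_⟩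
    have := conj_mem_of_norm' x.2 (inv_mem hm)
    convert this using 1
    simp [mul_assoc]
  have m := le_copre (N := M) D
  obtain ⟨d, hd, l⟩ := h.gl (copre M D) (copre_le_of_le_quo hM a) (norm_copre hF b) (copre M Γ) (by
    rw [← copre_sup, e, copre_sup, copre_quo hF, ← sup_assoc, sup_eq_left.2 m])
  obtain ⟨n, hn⟩ := mem_copre.1 hd
  refine ⟨_, hn, ?_⟩
  have := quo_mono l M
  rwa [quo_cj n, quo_copre] at this

variable [Fact p.Prime]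

variable (p) in
theorem GQ.syl (h : GQ N F) : ∃ S, Syl p S N ∧ F ≤ 𝐍(S) := by
  obtain ⟨D, hD⟩ := Syl.exists p N
  obtain ⟨m, hm, l⟩ := h.gl N le_rfl h.norm _ (hD.frattini ⟨le_sup_left, sup_le_norm_left h.norm⟩)
  refine ⟨m ⋆ D, hD.conj_of_mem hm, l.trans ?_⟩
  rw [← conj_normalizer]
  exact conj_mono m inf_le_right

theorem GQ.syl_uniq (h : GQ N F) (hS : Syl p S N) (hT : Syl p T N) (h1 : F ≤ 𝐍(S)) (h2 : F ≤ 𝐍(T)) : S = T := by
  obtain ⟨n, hn, rfl⟩ := hT.exists_conj_eq hS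
  obtain ⟨m, hm, e⟩ := h.gl _ inf_le_left (norm_inf h.norm (norm_norm h1)) (n ⋆ F)
    (supp_restrict h.norm (supp_conj rfl hn) (map_norm _ h2) h1)
  rw [conj_conj] at e
  have h3 : m * n ∈ N ⊓ 𝐍(F) :=
    ⟨mul_mem hm.1 hn, norm_of_conj_eq (eq_of_le_of_card_le e (card_conj _ _).le).symm⟩
  have h4 := conj_eq_of_norm hm.2
  rw [conj_conj, conj_eq_of_norm (h2 (h.sn h3))] at h4
  exact h4.symm

end Cfsg.Lib.AC
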