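import Cfsg.Agent.Lib.NF.End

/-!
# Automorphisms and Sylow subgroups; the sign argument
-/

set_option autoImplicit false
set_option linter.unusedSectionVars false

namespace Cfsg.Lib.AC

open Subgroup Cfsg.Lib.BG Cfsg.Lib.Transfer Cfsg.Lib.Loc Cfsg.Lib.PLocal Cfsg.Lib.CGT Cfsg.Lib.PU Cfsg.Lib.FQ
open Cfsg.Lib.NF (im end_mem_im end_im_mul end_im_inf end_im_cent1)
open scoped commutatorElement

variable {G : Type*} [Group G] [Finite G] {H S T : Subgroup G} {F : G → G → Prop} {u z : G} {β : MulAut G}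

/-- The group `Γ` of the automorphisms `α` with `im α S = S` permutes the finite set `C = {c | ∃ z, Cz F z c}` (by `cl`); let
`ρ : Γ →* Perm C`. By `cm` for `s = u`, `sign (ρ (conj u)) = 1`. But `ρ (conj u)` is the swap of `c` and `c * z`, where
`Cz F z c` (`exists_cz`; `c * z ≠ c` by `cz_sq`; `Cz F z (c * z)` as the conjugate of `c` by `u`): `u` does not commute with `c`
(else `cent_of` with `b = u` makes `u` commute with its neighbour `w` of `Pw.nb`, `⁅u, w⁆ = z ≠ 1`), so `u c u⁻¹ = c z`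
(`cz_act`), `u (c z) u⁻¹ = c`; any `c'` with `Cz F z c'` is `c` or `c z` (`cz_eq`), and `Cz F z' c'` with `z' ≠ z` gives
`u c' = c' u` (`l4`, `l3c`). -/
theorem pw_false (h : Pw S F) (cl : ∀ α : MulAut G, im α S = S → ∀ s t, F s t → F (α s) (α t))
    (cm : ∀ s ∈ S, ∃ α δ : MulAut G, im α S = S ∧ im δ S = S ∧ δ * α * δ⁻¹ = MulAut.conj s * α) (e : F z u) : False := by
  sorry

/-- An automorphism of 2-power order leaves a Sylow 2-subgroup over an invariant 2-subgroup invariant. Either embed `G` in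
its holomorph (`PGroup.holL`, `exists_sylIn_ge` for `T ⊔ zpowers β` in `H ⊔ zpowers β`, `SylIn.inf_norm`, `SylIn.map_iff`),
or take an invariant 2-subgroup `R ≥ T` of `H` that is maximal: `zpowers β` acts on the odd number of Sylow 2-subgroups of
`H ⊓ 𝐍(R)`, a fixed one contains `R`, so equals `R`. -/
theorem exists_syl_im {k : ℕ} (hk : β ^ 2 ^ k = 1) (iH : im β H = H) (hT : IsPGroup 2 T) (h1 : T ≤ H)
    (iT : im β T = T) : ∃ R, T ≤ R ∧ SylIn 2 R H ∧ im β R = R := by
  sorry

end Cfsg.Lib.AC
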