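import Cfsg.Agent.Lib.NF.End

/-!
# Two sides that are swapped by an automorphism

Copy of `FQ/End` and `NF.tw_pw` with an automorphism `β` of `G` in place of conjugation by `a`: `a ⋆ X` becomes `im β X`,
`a * x * a⁻¹` becomes `β x`; `h.tq'` comes from `tq_map`/`bq_map` and `iJ`. The field `two` replaces the counting argument:
`FQ.two` with `B = ⊥` (the index `𝐂(J).relIndex (𝐘 P)` is 2 by `Tq.idx`) gives `T ≤ J ⊔ 𝐐 P`.
-/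

set_option autoImplicit false
set_option linter.unusedSectionVars false

namespace Cfsg.Lib.AC

open Subgroup Cfsg.Lib.BG Cfsg.Lib.Transfer Cfsg.Lib.Loc Cfsg.Lib.PLocal Cfsg.Lib.CGT Cfsg.Lib.PU Cfsg.Lib.FQ
open Cfsg.Lib.NF (im end_mem_im end_im_mul end_im_inf end_im_cent1)
open scoped commutatorElement

variable {G : Type*} [Group G]

/-- Two sides that are swapped by the automorphism `β`, over the field with two elements. -/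
structure Tx (J T P M : Subgroup G) (g : G) (β : MulAut G) : Prop where
  pm : PMin 2 T M P
  cz : P ⊓ 𝐂(𝐘 P ⊓ 𝐂(T)) ≤ M
  gP : g ∈ P
  gM : g ∉ M
  jT : 𝐉 T = J
  bq : Bq J (𝐘 P) g
  cq : ∀ x ∈ 𝐐 P, ⁅x, g⁆ ∈ 𝐘 P
  syl : SylIn 2 T (𝐍(J) ⊓ 𝐍(J ⊓ 𝐂(𝐘 P)))
  two : 𝐂(𝐘 P).relIndex J = 2
  iJ : im β J = J
  iT : im β T = T
  nc : ¬ 𝐘 P ≤ 𝐂(im β (𝐘 P))

variable [Finite G] {J M P S T : Subgroup G} {g k n v x y z : G} {β : MulAut G}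

namespace Tx

open Cfsg.Lib.CS

variable (h : Tx J T P M g β)
include h

theorem J_le : J ≤ T := h.jT ▸ thompsonSubgroupOf_le T

theorem T_norm : T ≤ 𝐍(J) := h.syl.1.trans inf_le_left

theorem inf_cent : T ⊓ 𝐂(𝐘 P) = 𝐐 P := inf_cent_Y h.pm h.cz

theorem tq' : Tq J (im β (𝐘 P)) := by
  have := (tq_map (f := (β : G →* G)) β.injective).2 h.bq.toTq
  rwa [show J.map (β : G →* G) = J from h.iJ] at this

theorem nc' : ¬ im β (𝐘 P) ≤ 𝐂(𝐘 P) := fun k => h.nc (le_centralizer_iff.1 k)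

theorem idxV : 𝐂(J).relIndex (𝐘 P) = 2 := h.bq.idx.trans h.two

theorem tj : T ≤ J ⊔ 𝐐 P :=
  (FQ.two (B := ⊥) h.pm h.cz h.J_le h.T_norm h.bq.toTq bot_le (PGroup.elemAb_of_le h.bq.el bot_le)
    (fun b hb _ _ _ => mem_bot.1 hb ▸ one_mem _) (by
      rw [relIndex_bot_right, show 𝐂((⊥ : Subgroup G)) = ⊤ from eq_top_iff.2 fun x _ =>
        mem_centralizer_iff.2 fun y hy => by rw [mem_bot.1 hy, one_mul, mul_one], inf_top_eq, h.idxV])).2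

theorem sylP : SylIn 2 T P := ⟨h.pm.le.trans h.pm.lt.le, h.pm.pgroup, h.pm.syl⟩

theorem Q_le : 𝐐 P ≤ T := h.inf_cent ▸ inf_le_left

omit h in
theorem cQ : 𝐐 P ≤ 𝐂(𝐘 P) := le_centralizer_iff.1 (oz_le_centralizer _)

theorem cT (hv : v ∈ 𝐘 P) (h1 : v ∈ 𝐂(J)) : v ∈ 𝐂(T) :=
  centralizer_le (SetLike.coe_subset_coe.2 h.tj) (cent_sup J (𝐐 P) ▸ mem_inf.2 ⟨h1, oz_le_centralizer _ hv⟩)

theorem comm_le : ⁅𝐘 P, J⁆ ≤ 𝐘 P := commutator_le.2 fun v hv t ht => by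
  rw [commutatorElement_def, mul_assoc, mul_assoc, ← mul_assoc t]
  exact mul_mem hv (conj_mem_of_norm (h.bq.nV ht) (inv_mem hv))

theorem E_eq (hv : v ∈ 𝐘 P) (n : v ∉ 𝐂(J)) : J ⊓ 𝐂[v] = J ⊓ 𝐂(𝐘 P) :=
  le_antisymm (fun t ht => ⟨ht.1, (h.bq.ti v hv t ht.1 (mem_cent1.1 ht.2)).resolve_right n⟩) fun _ ht =>
    ⟨ht.1, mem_cent1.2 (mem_centralizer_iff.1 ht.2 v hv).symm⟩

/-- `z = ⁅t, v⁆` with `t ∈ J ∖ 𝐂(V)`, `v ∈ V ∖ 𝐂(J)`; both indices are 2 and `⁅V, J⁆ ≤ V ⊓ 𝐂(J)`. -/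
theorem exists_z : ∃ z, z ≠ 1 ∧ z * z = 1 ∧ z ∉ 𝐂[g] ∧ ⁅𝐘 P, J⁆ = zpowers z := by
  obtain ⟨v, hv, nv⟩ := SetLike.not_le_iff_exists.1 h.bq.nc
  obtain ⟨t, ht, nt⟩ := SetLike.not_le_iff_exists.1 fun k : J ≤ 𝐂(𝐘 P) => h.bq.nc (le_centralizer_iff.1 k)
  have hz : ⁅t, v⁆ ∈ ⁅𝐘 P, J⁆ := commutatorElement_inv v t ▸ inv_mem (commutator_mem_commutator hv ht)
  have zg : ⁅t, v⁆ ∉ 𝐂[g] := fun k => (h.bq.nd v hv t ht k).elim nt nv
  refine ⟨⁅t, v⁆, fun k => zg (k ▸ one_mem _), el_sq h.bq.el (h.comm_le hz), zg,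
    le_antisymm (commutator_le.2 fun w hw s hs => ?_) (zpowers_le.2 hz)⟩
  by_cases h1 : w ∈ 𝐂(J)
  · exact commutatorElement_eq_one_iff_mul_comm.2 (mem_centralizer_iff.1 h1 s hs).symm ▸ one_mem _
  by_cases h2 : s ∈ 𝐂(𝐘 P)
  · exact commutatorElement_eq_one_iff_mul_comm.2 (mem_centralizer_iff.1 h2 w hw) ▸ one_mem _
  have c := mem_centralizer_iff.1 (end_two h.idxV (inv_mem hv) hw (mt inv_mem_iff.1 nv) h1) s hs
  have e := mem_centralizer_iff.1 (end_two h.two (inv_mem ht) hs (mt inv_mem_iff.1 nt) h2) _ (inv_mem hv)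
  have : ⁅w, s⁆ = ⁅t, v⁆⁻¹ := by
    simp only [commutatorElement_def]
    calc _ = v * (v⁻¹ * w * s) * w⁻¹ * s⁻¹ := by group
      _ = v * t * (t⁻¹ * s * v⁻¹) * s⁻¹ := by rw [← c]; group
      _ = _ := by rw [← e]; group
  exact this ▸ inv_mem (mem_zpowers _)

variable (hz : ⁅𝐘 P, J⁆ = zpowers z) (z1 : z ≠ 1) (z2 : z * z = 1) (zg : z ∉ 𝐂[g])
include hz

/-- `T = J Q` and `Q ≤ 𝐂(V)`. -/
theorem comm_T : ⁅𝐘 P, T⁆ = zpowers z := le_antisymm ((commutator_mono le_rfl h.tj).trans (commutator_sup_le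
    (hz ▸ h.comm_le) h.bq.nV (cQ.trans (centralizer_le_normalizer _)) hz.le
    ((commutator_eq_bot_iff_le_centralizer.2 (oz_le_centralizer _)).le.trans bot_le)))
  (hz ▸ commutator_mono le_rfl h.J_le)

theorem z_mem : z ∈ 𝐘 P ⊓ 𝐂(T) := have : z ∈ ⁅𝐘 P, J⁆ := hz ▸ mem_zpowers z
  ⟨h.comm_le this, h.cT (h.comm_le this) (h.bq.quad this)⟩

/-- `⁅V', J⁆ = ⁅V', V⁆ = ⁅V, J⁆` by `Tq.le_sup`. -/
theorem comm' : ⁅im β (𝐘 P), J⁆ = zpowers z := hz ▸ le_antisymm (h.tq'.comm_le h.bq.toTq h.nc')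
  (h.bq.toTq.comm_le h.tq' h.nc)

include z1 z2

theorem az : β z = z := by
  have e : im β (zpowers z) = zpowers z := by
    conv_lhs => rw [← hz]
    rw [← h.comm' hz]
    exact (map_commutator _ _ _).trans (congrArg _ h.iJ)
  exact (pu_zp z2 (e ▸ end_mem_im.2 (mem_zpowers z))).resolve_left (by simpa using z1)

include zg

/-- Otherwise `u ∈ 𝐂(J ⊔ Q) ≤ 𝐂(T)` and `K = T ⊔ g⁻¹ ⋆ T ≤ 𝐂[z]`. `K = P` contradicts `zg`; else `K ≤ M`,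
`g⁻¹ ⋆ T = m ⋆ T` with `m ∈ M`, and `g m ∈ P ⊓ 𝐍(T) ≤ M`. -/
theorem u_not : g * z * g⁻¹ ∈ 𝐘 P ∧ g * z * g⁻¹ ∉ 𝐂(J) := by
  have hu := conj_mem_of_norm (norm_Y 2 P h.gP) (h.z_mem hz).1
  refine ⟨hu, fun k => h.gM ?_⟩
  have s1 := h.sylP.conj_mem (inv_mem h.gP)
  have K : T ⊔ g⁻¹ ⋆ T ≤ M := by
    by_contra n
    have e := h.pm.eq_of_not_le le_sup_left (sup_le h.sylP.1 s1.1) n
    have : T ⊔ g⁻¹ ⋆ T ≤ 𝐂[z] := sup_le (fun t ht => mem_cent1.2 (mem_centralizer_iff.1 (h.z_mem hz).2 t ht))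
      (conj_le_iff.2 fun t ht => mem_cent1.2 (by
        have := mem_centralizer_iff.1 (h.cT hu k) t ht
        calc _ = g⁻¹ * (t * (g * z * g⁻¹)) * g := by group
          _ = _ := by rw [this]; group))
    exact zg (mem_cent1.2 (mem_cent1.1 (this (e ▸ h.gP))).symm)
  obtain ⟨m, hm, e⟩ := (h.sylP.of_le h.pm.le h.pm.lt.le).exists_conj (s1.of_le (le_sup_right.trans K) h.pm.lt.le)
  have := h.pm.normalizer_le ⟨mul_mem h.gP (h.pm.lt.le hm), norm_of_conj_eq (by rw [← conj_conj, e, conj_inv_conj])⟩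
  exact (mul_mem_cancel_right hm).1 this

/-- `u' ∈ V' ≤ J` is not in `𝐂(V)` by `Tq.inf_le`. -/
theorem u'_not : β (g * z * g⁻¹) ∈ J ∧ β (g * z * g⁻¹) ∉ 𝐂(𝐘 P) := by
  obtain ⟨h1, h2⟩ := h.u_not hz z1 z2 zg
  refine ⟨h.tq'.le (end_mem_im.2 h1), fun k => h2 ?_⟩
  have := h.bq.toTq.inf_le h.tq' h.nc ⟨end_mem_im.2 h1, k⟩
  exact mem_centralizer_iff.2 fun t ht => β.injective (by
    rw [map_mul β t, map_mul β _ t]
    exact mem_centralizer_iff.1 this _ (h.iJ ▸ end_mem_im.2 ht))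

/-- For `v ∈ V`: `⁅v, u'⁆ ∈ ⟨z⟩`, and it is `1` exactly for `v ∈ 𝐂(J)` (`ti`). -/
theorem comm_eq (hv : v ∈ 𝐘 P) (h1 : v ∉ 𝐂(J)) : ⁅v, β (g * z * g⁻¹)⁆ = z := by
  obtain ⟨h2, h3⟩ := h.u'_not hz z1 z2 zg
  exact (pu_zp z2 (hz ▸ commutator_mem_commutator hv h2)).resolve_left fun k =>
    (h.bq.ti v hv _ h2 (commutatorElement_eq_one_iff_mul_comm.1 k).symm).elim h3 h1

theorem comm_u (hx : x ∈ T) : ⁅x, g * z * g⁻¹⁆ ∈ zpowers z :=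
  h.comm_T hz ▸ commutatorElement_inv _ x ▸ inv_mem (commutator_mem_commutator (h.u_not hz z1 z2 zg).1 hx)

/-- `x ∈ T = a ⋆ T ≤ J ⊔ a ⋆ Q`, `a ⋆ Q ≤ 𝐂(V')`, `comm'`. -/
theorem comm_mem (hx : x ∈ T) : ⁅x, β (g * z * g⁻¹)⁆ ∈ zpowers z := by
  obtain ⟨y, hy, rfl⟩ := h.iT.ge hx
  obtain ⟨k, hk⟩ := h.comm_u hz z1 z2 zg hy
  exact ⟨k, by
    change z ^ k = ⁅β y, _⁆
    rw [← map_commutatorElement, ← hk]
    change _ = β (z ^ k)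
    rw [map_zpow, h.az hz z1 z2]⟩

/-- `syl_up` with `K = 𝐂[z] ⊓ 𝐍(zpowers z ⊔ zpowers u) ≥ T` (`E = J ⊓ 𝐂[u] = J ⊓ 𝐂(⟨z, u⟩)` by `ti`); then
`Q = T ⊓ 𝐂[u]` is Sylow in the normal subgroup `𝐂[z] ⊓ 𝐂[u]` (`SylIn.inf_norm`). -/
theorem cent_eq (hS : IsPGroup 2 S) (h1 : T ≤ S) : S ⊓ 𝐂[z] ⊓ 𝐂[g * z * g⁻¹] = 𝐐 P := by
  obtain ⟨h2, h3⟩ := h.u_not hz z1 z2 zg
  have cu := fun x => h.comm_u (x := x) hz z1 z2 zg
  obtain ⟨zV, zT⟩ := h.z_mem hz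
  generalize g * z * g⁻¹ = u at *
  have zJ : z ∈ 𝐂(J) := centralizer_le (SetLike.coe_subset_coe.2 h.J_le) zT
  have zu : z * u = u * z := cnt_comm h.bq.el zV h2
  have TK : T ≤ Kz z u z2 := fun t ht => ⟨mul_inv_eq_iff_eq_mul.2 (mem_centralizer_iff.1 zT t ht), by
    have e : t * u * t⁻¹ = ⁅t, u⁆ * u := by simp [commutatorElement_def]
    rw [e]
    exact (pu_zp z2 (cu t ht)).imp (fun k => by rw [k, one_mul]) fun k => by rw [k, zu]⟩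
  have s := syl_up h.syl h.jT TK fun k hk => norm_of_conj_eq (by
    rw [← h.E_eq h2 h3, conj_inf, conj_eq_of_norm hk.2, conj_cent1]
    rcases hk.1.2 with e | e <;> rw [e]
    rw [h.E_eq h2 h3, h.E_eq (mul_mem h2 zV) (mt (mul_mem_cancel_right zJ).1 h3)])
  have s1 := SylIn.inf_norm (N := 𝐂[z] ⊓ 𝐂[u]) s (fun k hk => ⟨mul_inv_eq_iff_eq_mul.2 (mem_cent1.1 hk.1),
    Or.inl (mul_inv_eq_iff_eq_mul.2 (mem_cent1.1 hk.2))⟩) fun k hk => norm_of_conj_eq (by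
      rw [conj_inf, conj_cent1, conj_cent1, hk.1]
      rcases hk.2 with e | e <;> rw [e]
      ext x
      simp only [mem_inf, mem_cent1]
      refine and_congr_right fun hx => ?_
      rw [← mul_assoc, mul_assoc u, ← hx, ← mul_assoc, mul_left_inj])
  have QC : 𝐐 P ≤ 𝐂[z] ⊓ 𝐂[u] := fun q hq => ⟨mem_cent1.2 (mem_centralizer_iff.1 (cQ hq) z zV).symm,
    mem_cent1.2 (mem_centralizer_iff.1 (cQ hq) u h2).symm⟩
  have e : T ⊓ (𝐂[z] ⊓ 𝐂[u]) = 𝐐 P := le_antisymm (fun x hx => by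
    obtain ⟨j, hj, q, hq, rfl⟩ := (mem_sup_left_norm (h.Q_le.trans h.T_norm)).1 (h.tj hx.1)
    have : j ∈ J ⊓ 𝐂(𝐘 P) := h.E_eq h2 h3 ▸ mem_inf.2 ⟨hj, (mul_mem_cancel_right (mem_inf.1 (QC hq)).2).1 hx.2.2⟩
    exact mul_mem (h.inf_cent ▸ mem_inf.2 ⟨h.J_le hj, this.2⟩) hq) (le_inf h.Q_le QC)
  rw [e] at s1
  rw [inf_assoc]
  exact (s1.eq_of_le (hS.to_le inf_le_left) inf_le_right (le_inf (h.Q_le.trans h1) QC)).symm

/-- WC. `T` is Sylow in `𝐍(Q)` by `syl_up` (`E = J ⊓ Q`). `w = k z k⁻¹ ∈ V ⊓ 𝐂(J)` centralizes `T = J Q`, so `T`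
and `k ⋆ T` are Sylow in `𝐍(Q) ⊓ 𝐂[w]`; `c k ∈ 𝐍(T) ⊓ 𝐍(Q)` with `c ∈ 𝐂[w]` normalizes `⁅V, T⁆ = ⟨z⟩`. -/
theorem wc (hk : k ∈ 𝐍(𝐐 P)) (h1 : k * z * k⁻¹ ∈ 𝐂(J)) : k * z * k⁻¹ = z := by
  have nV := normalizer_le_normalizer_oz (p := 2) (𝐐 P)
  have s : SylIn 2 T 𝐍(𝐐 P) := syl_up h.syl h.jT (h.sylP.1.trans (le_normalizer_core 2 P))
    (norm_inf inf_le_right (norm_cent (inf_le_left.trans nV)))
  have c1 := h.cT (conj_mem_of_norm (nV hk) (h.z_mem hz).1) h1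
  have s2 := s.conj_mem hk
  obtain ⟨c, hc, e⟩ := (s2.of_le (N := 𝐍(𝐐 P) ⊓ 𝐂[k * z * k⁻¹]) (le_inf s2.1 (conj_cent1 k z ▸ conj_mono k fun t ht =>
    mem_cent1.2 (mem_centralizer_iff.1 (h.z_mem hz).2 t ht))) inf_le_left).exists_conj
    (s.of_le (le_inf s.1 fun t ht => mem_cent1.2 (mem_centralizer_iff.1 c1 t ht)) inf_le_left)
  have := end_fix (k := c * k) z1 z2 (by
    rw [← h.comm_T hz, conj_commutator, conj_eq_of_norm (nV (mul_mem hc.1 hk)), ← conj_conj, e])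
  rwa [show c * k * z * (c * k)⁻¹ = c * (k * z * k⁻¹) * c⁻¹ by group, mem_cent1.1 hc.2, mul_inv_cancel_right] at this

/-- Let `v = k z k⁻¹ ≠ z`; `v ∉ 𝐂(J)` by `wc`, so `v z = u' v u'⁻¹` is also conjugate to `z` in `𝐍(Q)`. If
`v ∉ {u, u z}` then none of `z, v, v z ∈ V` is `u`, so none centralizes `g ⋆ J` (`wc` conjugated by
`g ∈ P ≤ 𝐍(Q)`); but `𝐂(g ⋆ J)` has index 2 in `V = g ⋆ V`. -/
theorem orb (hk : k ∈ 𝐍(𝐐 P)) (h1 : k * z * k⁻¹ ≠ z) :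
    k * z * k⁻¹ = g * z * g⁻¹ ∨ k * z * k⁻¹ = g * z * g⁻¹ * z := by
  have gQ := le_normalizer_core 2 P h.gP
  have w : ∀ l ∈ 𝐍(𝐐 P), l * z * l⁻¹ ∈ 𝐂(g ⋆ J) → l * z * l⁻¹ = g * z * g⁻¹ := fun l hl e => by
    rw [← conj_centralizer, mem_conj] at e
    have := h.wc hz z1 z2 zg (mul_mem (inv_mem gQ) hl) (by convert e using 1; group)
    calc _ = g * (g⁻¹ * l * z * (g⁻¹ * l)⁻¹) * g⁻¹ := by group
      _ = _ := by rw [this]
  have zV := (h.z_mem hz).1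
  have hv := conj_mem_of_norm (normalizer_le_normalizer_oz (p := 2) (𝐐 P) hk) zV
  have i : 𝐂(g ⋆ J).relIndex (𝐘 P) = 2 := by
    rw [← conj_centralizer, ← conj_eq_of_norm (norm_Y 2 P h.gP), relIndex_conj, h.idxV]
  refine or_iff_not_imp_left.2 fun n => ?_
  have c := h.comm_eq hz z1 z2 zg hv (mt (h.wc hz z1 z2 zg hk) h1)
  have uQ := le_normalizer_core 2 P (h.sylP.1 (h.J_le (h.u'_not hz z1 z2 zg).1))
  generalize β (g * z * g⁻¹) = r at c uQ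
  have v2 := el_sq h.bq.el hv
  have e : r * k * z * (r * k)⁻¹ = k * z * k⁻¹ * z := by
    rw [commutatorElement_def, pu_inv v2] at c
    calc _ = k * z * k⁻¹ * (k * z * k⁻¹) * (r * (k * z * k⁻¹) * r⁻¹) := by rw [v2]; group
      _ = k * z * k⁻¹ * (k * z * k⁻¹ * r * (k * z * k⁻¹) * r⁻¹) := by simp only [mul_assoc]
      _ = _ := by rw [c]
  have := w _ (mul_mem uQ hk) (e ▸ end_two i hv zV (mt (w k hk) n) fun q => zg (mem_cent1.2 (by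
    have := w 1 (one_mem _) (by simpa using q)
    rw [one_mul, inv_one, mul_one, eq_mul_inv_iff_mul_eq] at this
    exact this)))
  rw [← this, e, mul_assoc _ z z, z2, mul_one]

theorem pw (hS : IsPGroup 2 S) (h1 : T ≤ S) (h2 : im β S = S) :
    Pw S fun s t => ∃ α : MulAut G, im α S = S ∧ α z = s ∧ α (g * z * g⁻¹) = t := by
  obtain ⟨uV, uJ⟩ := h.u_not hz z1 z2 zg
  have zV := (h.z_mem hz).1
  have VS : 𝐘 P ≤ S := h.bq.le.trans (h.J_le.trans h1)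
  have E : ∀ α : MulAut G, im α S = S → S ⊓ 𝐂[α z] ⊓ 𝐂[α (g * z * g⁻¹)] = im α (𝐐 P) := fun α hα => by
    rw [← h.cent_eq hz z1 z2 zg hS h1, end_im_inf, end_im_inf, hα, end_im_cent1, end_im_cent1]
  refine ⟨hS, ?_, ?_, ?_, ?_, ?_⟩
  · rintro n hn _ _ ⟨α, hα, rfl, rfl⟩
    exact ⟨MulAut.conj n * α, by rw [end_im_mul, hα]; exact conj_eq_of_norm hn, rfl, rfl⟩
  · rintro _ _ ⟨α, hα, rfl, rfl⟩
    refine ⟨hα ▸ end_mem_im.2 (VS zV), hα ▸ end_mem_im.2 (VS uV), by rw [← map_mul, z2, map_one], ?_,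
      by simpa using z1, ?_⟩
    · rw [← map_mul, el_sq h.bq.el uV, map_one]
    · rw [← map_mul, ← map_mul, cnt_comm h.bq.el zV uV]
  · rintro _ _ ⟨α, hα, rfl, rfl⟩
    refine ⟨α (β (g * z * g⁻¹)), ⟨α * β, ?_, ?_, rfl⟩, ?_, fun x hx => ?_⟩
    · rw [end_im_mul, h2, hα]
    · exact congrArg α (h.az hz z1 z2)
    · rw [← map_commutatorElement, h.comm_eq hz z1 z2 zg uV uJ]
    · rw [E α hα] at hx
      obtain ⟨y, hy, rfl⟩ := hx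
      obtain ⟨k, hk⟩ := h.comm_mem hz z1 z2 zg (h.Q_le hy)
      exact ⟨k, by
        change α z ^ k = ⁅α y, _⁆
        rw [← map_commutatorElement, ← hk, map_zpow]⟩
  · rintro _ _ ⟨α, hα, rfl, rfl⟩
    refine ⟨im α 𝐂[g], mt end_mem_im.1 zg, fun x hx => ?_⟩
    rw [E α hα] at hx
    obtain ⟨y, hy, rfl⟩ := hx
    rw [← map_mul]
    exact mem_map_of_mem _ (sq_mem h.bq.el (cQ hy) (h.cq _ hy))
  · rintro _ _ _ ⟨α, hα, rfl, rfl⟩ ⟨δ, hβ, e, rfl⟩ k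
    have le : im α (𝐐 P) ≤ im δ (𝐐 P) := by
      rw [← E α hα, ← E δ hβ, e]
      exact le_inf inf_le_left k
    have l := eq_of_le_of_card_ge le (by
      rw [card_map_of_injective (f := (α : G →* G)) α.injective,
        card_map_of_injective (f := (δ : G →* G)) δ.injective])
    have l1 : im (α⁻¹ * δ) (𝐐 P) = 𝐐 P := by
      rw [end_im_mul, ← l, ← end_im_mul, inv_mul_cancel]
      exact Subgroup.map_id _
    have l2 : (α⁻¹ * δ) g ∈ 𝐍(𝐐 P) := by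
      have := le_normalizer_map ((α⁻¹ * δ : MulAut G) : G →* G) (mem_map_of_mem _ (le_normalizer_core 2 P h.gP))
      rwa [show Subgroup.map _ (𝐐 P) = _ from l1] at this
    have l3 : (α⁻¹ * δ) z = z := by
      change α.symm (δ z) = z
      rw [e, α.symm_apply_apply]
    have q : δ (g * z * g⁻¹) = α ((α⁻¹ * δ) g * z * ((α⁻¹ * δ) g)⁻¹) := by
      conv_rhs => rw [← l3, ← map_inv, ← map_mul, ← map_mul]
      exact (α.apply_symm_apply _).symm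
    rw [← map_mul, q]
    refine (h.orb hz z1 z2 zg l2 fun c => zg (mem_cent1.2 ?_)).imp (fun c => by rw [c]) fun c => by rw [c]
    rw [c, ← e, δ.injective.eq_iff, mul_inv_eq_iff_eq_mul] at q
    exact q.symm

end Tx

/-- Copy `exists_z`, `comm_T`, `z_mem`, `comm'`, `az` (`β z = z`), `u_not`, `u'_not`, `comm_eq`, `comm_u`, `comm_mem`,
`cent_eq`, `wc`, `orb` of `FQ.Tw` into the namespace `Tx`; the family is that of `NF.tw_pw`,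
`fun s t => ∃ α, im α S = S ∧ α z = s ∧ α (g * z * g⁻¹) = t`, and in the field `nb` the neighbour is
`α (β (g * z * g⁻¹))` (automorphism `α * β`). -/
theorem Tx.exists_pw (h : Tx J T P M g β) (hS : IsPGroup 2 S) (h1 : T ≤ S) (h2 : im β S = S) :
    ∃ (F : G → G → Prop) (z u : G), Pw S F ∧ (∀ α : MulAut G, im α S = S → ∀ s t, F s t → F (α s) (α t)) ∧ F z u := by
  obtain ⟨z, z1, z2, zg, hz⟩ := h.exists_z
  refine ⟨_, z, g * z * g⁻¹, h.pw hz z1 z2 zg hS h1 h2, ?_, ⟨1, Subgroup.map_id _, rfl, rfl⟩⟩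
  rintro α hα _ _ ⟨γ, hγ, rfl, rfl⟩
  exact ⟨α * γ, by rw [end_im_mul, hγ, hα], rfl, rfl⟩

end Cfsg.Lib.AC
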